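import Cfsg.Agent.Majorana.Basic

/-!
The decomposition of a unit vector with respect to one Majorana axis.
-/

set_option autoImplicit false

namespace CfsgLib.Majorana

open Cfsg.Axial

variable {V : Type*} [AddCommGroup V] [Module ℝ V]
variable {mul : V →ₗ[ℝ] V →ₗ[ℝ] V} {B : LinearMap.BilinForm ℝ V}

theorem orth_eigen (hV : IsMajoranaAmbient mul B) {p x y : V} {c d : ℝ} (hcd : c ≠ d)
    (hx : mul p x = c • x) (hy : mul p y = d • y) : B x y = 0 := by
  have e : B x (mul p y) = B (mul p x) y := by rw [hV.2.2.2.1, hV.1 x p]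
  rw [hx, hy, map_smul, map_smul, LinearMap.smul_apply, smul_eq_mul, smul_eq_mul] at e
  have : (d - c) * B x y = 0 := by linarith
  exact (mul_eq_zero.mp this).resolve_left (sub_ne_zero.mpr (Ne.symm hcd))

theorem exists_four_parts (hV : IsMajoranaAmbient mul B) {μ : V ≃ₗ[ℝ] V} {p : V}
    (h : IsMajoranaPair mul B μ p) (hn : B p p = 1) (q : V) :
    ∃ u v w : V, mul p u = 0 ∧ mul p v = (1 / 4 : ℝ) • v ∧ mul p w = (1 / 32 : ℝ) • w ∧
      q = B p q • p + u + v + w ∧ μ q = B p q • p + u + v - w := by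
  have hp := h.2.2.1
  have hall : q ∈ eigenSum mul p majoranaSpectrum := by rw [hp.1.2.2.1]; trivial
  rw [eigenSum_majoranaSpectrum, Submodule.mem_sup] at hall
  obtain ⟨w1, h1, r, hr, rfl⟩ := hall
  rw [Submodule.mem_sup] at hr
  obtain ⟨u, h0, r, hr, rfl⟩ := hr
  rw [Submodule.mem_sup] at hr
  obtain ⟨v, h4, w, h32, rfl⟩ := hr
  have f1 : μ w1 = w1 := h.2.2.2.1 _ (eigen_le_eigenSum (by simp) h1)
  have f0 : μ u = u := h.2.2.2.1 _ (eigen_le_eigenSum (by simp) h0)
  have f4 : μ v = v := h.2.2.2.1 _ (eigen_le_eigenSum (by simp) h4)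
  have f32 : μ w = -w := h.2.2.2.2 _ h32
  rw [hp.2, Submodule.mem_span_singleton] at h1
  obtain ⟨c, rfl⟩ := h1
  rw [mem_eigen] at h0 h4 h32
  have hpp : mul p p = (1 : ℝ) • p := by rw [hp.1.2.1, one_smul]
  have e0 : B p u = 0 := orth_eigen hV one_ne_zero hpp h0
  have e4 : B p v = 0 := orth_eigen hV (by norm_num) hpp h4
  have e32 : B p w = 0 := orth_eigen hV (by norm_num) hpp h32
  have hc : B p (c • p + (u + (v + w))) = c := by
    simp only [map_add, map_smul, hn, e0, e4, e32, smul_eq_mul, mul_one, add_zero]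
  refine ⟨u, v, w, by rw [h0, zero_smul], h4, h32, ?_, ?_⟩
  · rw [hc]; abel
  · rw [hc, map_add, map_add, map_add, f1, f0, f4, f32]; abel

/-- The consequences of the fusion rules for the pair of a Majorana axis `p` and a unit vector
idempotent `q`. -/
theorem axis_facts (hV : IsMajoranaAmbient mul B) {μ : V ≃ₗ[ℝ] V} {p : V}
    (h : IsMajoranaPair mul B μ p) (hn : B p p = 1) {q : V} (hq : mul q q = q) (hqn : B q q = 1)
    {s u v : V} (hs : s = mul p q - (1 / 32 : ℝ) • (p + q))
    (hv : v = (1 / 8 : ℝ) • ((1 / 2 : ℝ) • (q + μ q) - B p q • p + (32 : ℝ) • s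
      - (31 * B p q - 1) • p))
    (hu : u = (1 / 2 : ℝ) • (q + μ q) - B p q • p - v) :
    mul p (μ q) - (1 / 32 : ℝ) • (p + μ q) = s ∧
    mul p s = ((31 * B p q - 1) / 32) • p + (7 / 128 : ℝ) • v ∧
    mul p (mul u u) = 0 ∧ mul p (mul u v) = (1 / 4 : ℝ) • mul u v ∧
    mul p (mul v v) = (B p q - B p q * B p q - (1 - B q (μ q)) / 64) • p := by
  obtain ⟨u₁, v₁, w, h0, h4, h32, hd, hd'⟩ := exists_four_parts hV h hn q
  have hp := h.2.2.1
  have hpp := hp.1.2.1
  set l := B p q with hl
  have hpq : mul p q = l • p + (1 / 4 : ℝ) • v₁ + (1 / 32 : ℝ) • w := by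
    conv_lhs => rw [hd]
    simp only [map_add, map_smul, hpp, h0, h4, h32, add_zero]
  have hv' : v = v₁ := by
    rw [hv, hs, hpq]
    rw [hd']
    nth_rewrite 1 2 [hd]
    module
  have hu' : u = u₁ := by
    rw [hu, hv', hd']
    nth_rewrite 1 [hd]
    module
  subst hv'
  subst hu'
  have hm0 : u ∈ eigen mul p 0 := by rw [mem_eigen, h0, zero_smul]
  have hm4 : v ∈ eigen mul p (1 / 4) := mem_eigen.mpr h4
  refine ⟨?_, ?_, ?_, ?_, ?_⟩
  · rw [hs, hpq, hd']
    simp only [map_add, map_sub, map_smul, hpp, h0, h4, h32]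
    nth_rewrite 1 [hd]
    module
  · rw [hs, hpq]
    nth_rewrite 1 [hd]
    simp only [map_add, map_sub, map_smul, hpp, h0, h4, h32]
    module
  · have := mem_eigen.mp (fusion_zero_zero hp hm0 hm0)
    simpa using this
  · exact mem_eigen.mp (fusion_zero_quarter hp hm0 hm4)
  · have h44 := fusion_quarter_quarter hp hm4 hm4
    rw [eigenSum_one_zero, Submodule.mem_sup] at h44
    obtain ⟨x, hx, y, hy, hxy⟩ := h44
    rw [hp.2, Submodule.mem_span_singleton] at hx
    obtain ⟨c, rfl⟩ := hx
    rw [mem_eigen] at hy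
    have hpvv : mul p (mul v v) = c • p := by
      rw [← hxy, map_add, map_smul, hpp, hy, zero_smul, add_zero]
    rw [hpvv]
    congr 1
    have hBp : B p y = 0 :=
      orth_eigen hV one_ne_zero (show mul p p = (1 : ℝ) • p by rw [hpp, one_smul]) hy
    have hc : c = B p (mul v v) := by
      rw [← hxy, map_add, map_smul, hn, hBp, smul_eq_mul, mul_one, add_zero]
    have hvv : B p (mul v v) = (1 / 4) * B v v := by
      rw [hV.2.2.2.1, h4, map_smul, LinearMap.smul_apply, smul_eq_mul]
    have huv : B u v = 0 := orth_eigen hV (by norm_num) (show mul p u = (0 : ℝ) • u by rw [h0, zero_smul]) h4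
    have huw : B u w = 0 := orth_eigen hV (by norm_num) (show mul p u = (0 : ℝ) • u by rw [h0, zero_smul]) h32
    have hvw : B v w = 0 := orth_eigen hV (by norm_num) h4 h32
    have hpu : B p u = 0 := orth_eigen hV one_ne_zero (show mul p p = (1 : ℝ) • p by rw [hpp, one_smul])
      (show mul p u = (0 : ℝ) • u by rw [h0, zero_smul])
    have hpv : B p v = 0 :=
      orth_eigen hV (by norm_num) (show mul p p = (1 : ℝ) • p by rw [hpp, one_smul]) h4
    have hpw : B p w = 0 :=
      orth_eigen hV (by norm_num) (show mul p p = (1 : ℝ) • p by rw [hpp, one_smul]) h32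
    have hsym := hV.2.1
    have n1 : B q q = l * l + B u u + B v v + B w w := by
      rw [hd]
      simp only [map_add, map_smul, LinearMap.add_apply, LinearMap.smul_apply, smul_eq_mul, hn,
        huv, huw, hvw, hpu, hpv, hpw, hsym v u, hsym w u, hsym w v, hsym u p, hsym v p, hsym w p]
      ring
    have n2 : B q (μ q) = l * l + B u u + B v v - B w w := by
      rw [hd']
      nth_rewrite 1 [hd]
      simp only [map_add, map_sub, map_smul, LinearMap.add_apply, LinearMap.smul_apply, smul_eq_mul,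
        hn, huv, huw, hvw, hpu, hpv, hpw, hsym v u, hsym w u, hsym w v, hsym u p, hsym v p, hsym w p]
      ring
    have n3 : B q (mul p q) = l * l + (1 / 4) * B v v + (1 / 32) * B w w := by
      rw [hpq]
      nth_rewrite 1 [hd]
      simp only [map_add, map_smul, LinearMap.add_apply, LinearMap.smul_apply, smul_eq_mul, hn,
        huv, huw, hvw, hpu, hpv, hpw, hsym v u, hsym w u, hsym w v, hsym u p, hsym v p, hsym w p]
      ring
    have n4 : B q (mul p q) = l := by
      rw [hV.1 p q, hV.2.2.2.1, hq, hsym]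
    linear_combination hc + hvv - (1/64) * n2 + (1/64) * n1 - (1/64) * hqn - n3 + n4

end CfsgLib.Majorana
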