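import Mathlib
import Cfsg.Prelude.Def_AxialAlgebras
import Cfsg.Agent.Eq.Def_AxialAlgebras

/-!
Elementary facts on Majorana axes.
-/

set_option autoImplicit false

namespace CfsgLib.Majorana

open Cfsg.Axial

variable {V : Type*} [AddCommGroup V] [Module ℝ V]
variable {mul : V →ₗ[ℝ] V →ₗ[ℝ] V} {B : LinearMap.BilinForm ℝ V}

theorem mem_eigen {a v : V} {c : ℝ} : v ∈ eigen mul a c ↔ mul a v = c • v :=
  Module.End.mem_eigenspace_iff

theorem eigen_le_eigenSum {a : V} {c : ℝ} {S : Set ℝ} (h : c ∈ S) :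
    eigen mul a c ≤ eigenSum mul a S :=
  le_iSup₂_of_le c h le_rfl

theorem eigenSum_one_zero (a : V) :
    eigenSum mul a {1, 0} = eigen mul a 1 ⊔ eigen mul a 0 := by
  simp only [eigenSum, iSup_insert, iSup_singleton]

theorem eigenSum_majoranaSpectrum (a : V) :
    eigenSum mul a majoranaSpectrum =
      eigen mul a 1 ⊔ (eigen mul a 0 ⊔ (eigen mul a (1 / 4) ⊔ eigen mul a (1 / 32))) := by
  simp only [eigenSum, majoranaSpectrum, iSup_insert, iSup_singleton]

/-- A `1/4`-eigenvector in the sum of the `1`- and `0`-eigenspaces vanishes. -/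
theorem eq_zero_of_quarter {a x : V} (h4 : x ∈ eigen mul a (1 / 4))
    (h : x ∈ eigenSum mul a {1, 0}) : x = 0 := by
  rw [eigenSum_one_zero, Submodule.mem_sup] at h
  obtain ⟨u, hu, w, hw, rfl⟩ := h
  rw [mem_eigen] at hu hw h4
  rw [map_add, hu, hw, one_smul, zero_smul, add_zero] at h4
  have h5 := congrArg (mul a) h4
  rw [map_smul, map_add, hu, hw, one_smul, zero_smul, add_zero] at h5
  have hu0 : u = 0 := by
    have h6 : ((3 : ℝ) / 4) • u = 0 := by
      linear_combination (norm := module) h5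
    simpa using h6
  subst hu0
  simpa using h4.symm

theorem spectrum_mem :
    (1 : ℝ) ∈ majoranaSpectrum ∧ (0 : ℝ) ∈ majoranaSpectrum ∧
      (1 / 4 : ℝ) ∈ majoranaSpectrum ∧ (1 / 32 : ℝ) ∈ majoranaSpectrum := by
  simp [majoranaSpectrum]

theorem fusion_zero_zero {a u v : V}
    (ha : IsPrimitiveAxis mul (monsterLaw (1 / 4) (1 / 32)) majoranaSpectrum a)
    (hu : u ∈ eigen mul a 0) (hv : v ∈ eigen mul a 0) : mul u v ∈ eigen mul a 0 := by
  have h := ha.1.2.2.2 0 spectrum_mem.2.1 0 spectrum_mem.2.1 u hu v hv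
  norm_num [monsterLaw, eigenSum] at h
  exact h

theorem fusion_zero_quarter {a u v : V}
    (ha : IsPrimitiveAxis mul (monsterLaw (1 / 4) (1 / 32)) majoranaSpectrum a)
    (hu : u ∈ eigen mul a 0) (hv : v ∈ eigen mul a (1 / 4)) :
    mul u v ∈ eigen mul a (1 / 4) := by
  have h := ha.1.2.2.2 0 spectrum_mem.2.1 _ spectrum_mem.2.2.1 u hu v hv
  norm_num [monsterLaw, eigenSum] at h ⊢
  exact h

theorem fusion_quarter_quarter {a u v : V}
    (ha : IsPrimitiveAxis mul (monsterLaw (1 / 4) (1 / 32)) majoranaSpectrum a)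
    (hu : u ∈ eigen mul a (1 / 4)) (hv : v ∈ eigen mul a (1 / 4)) :
    mul u v ∈ eigenSum mul a {1, 0} := by
  have h := ha.1.2.2.2 _ spectrum_mem.2.2.1 _ spectrum_mem.2.2.1 u hu v hv
  simp only [monsterLaw] at h
  norm_num at h
  exact h

/-- A vector fixed by the Majorana involution of `a` has no `1/32`-component. -/
theorem decomp_fixed (hV : IsMajoranaAmbient mul B) {μ : V ≃ₗ[ℝ] V} {a v : V}
    (h : IsMajoranaPair mul B μ a) (hn : B a a = 1) (hv : μ v = v) :
    ∃ u0 ∈ eigen mul a 0, ∃ u4 ∈ eigen mul a (1 / 4), v = B a v • a + u0 + u4 := by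
  obtain ⟨-, -, ⟨hax, hprim⟩, hfix, hneg⟩ := h
  have hall : v ∈ eigenSum mul a majoranaSpectrum := by rw [hax.2.2.1]; trivial
  rw [eigenSum_majoranaSpectrum, Submodule.mem_sup] at hall
  obtain ⟨w1, h1, r, hr, rfl⟩ := hall
  rw [Submodule.mem_sup] at hr
  obtain ⟨w0, h0, r, hr, rfl⟩ := hr
  rw [Submodule.mem_sup] at hr
  obtain ⟨w4, h4, w32, h32, rfl⟩ := hr
  have f1 : μ w1 = w1 := hfix _ (eigen_le_eigenSum (by simp) h1)
  have f0 : μ w0 = w0 := hfix _ (eigen_le_eigenSum (by simp) h0)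
  have f4 : μ w4 = w4 := hfix _ (eigen_le_eigenSum (by simp) h4)
  have f32 : μ w32 = -w32 := hneg _ h32
  rw [map_add, map_add, map_add, f1, f0, f4, f32] at hv
  have hw : w32 = 0 := by
    have : (2 : ℝ) • w32 = 0 := by linear_combination (norm := module) -hv
    simpa using this
  rw [hprim, Submodule.mem_span_singleton] at h1
  obtain ⟨c, rfl⟩ := h1
  subst hw
  refine ⟨w0, h0, w4, h4, ?_⟩
  have orth : ∀ (d : ℝ) (w : V), d ≠ 1 → w ∈ eigen mul a d → B a w = 0 := by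
    intro d w hd hw
    have e : B a (mul a w) = B a w := by rw [hV.2.2.2.1, hax.2.1]
    rw [mem_eigen] at hw
    rw [hw, map_smul, smul_eq_mul] at e
    have : (d - 1) * B a w = 0 := by linarith
    exact (mul_eq_zero.mp this).resolve_left (sub_ne_zero.mpr hd)
  have hc : B a (c • a + (w0 + (w4 + 0))) = c := by
    simp [orth 0 w0 (by norm_num) h0, orth (1 / 4) w4 (by norm_num) h4, hn]
  rw [hc]
  abel

theorem map_eigen {φ : V ≃ₗ[ℝ] V} (hφ : ∀ u v, φ (mul u v) = mul (φ u) (φ v)) (a : V) (c : ℝ) :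
    eigen mul (φ a) c = (eigen mul a c).map (φ : V →ₗ[ℝ] V) := by
  ext v
  rw [Submodule.mem_map, mem_eigen]
  constructor
  · intro hv
    refine ⟨φ.symm v, mem_eigen.mpr (φ.injective ?_), φ.apply_symm_apply v⟩
    rw [hφ, map_smul, φ.apply_symm_apply, hv]
  · rintro ⟨w, hw, rfl⟩
    rw [LinearEquiv.coe_coe, ← hφ, mem_eigen.mp hw, map_smul]

theorem map_eigenSum {φ : V ≃ₗ[ℝ] V} (hφ : ∀ u v, φ (mul u v) = mul (φ u) (φ v)) (a : V)
    (S : Set ℝ) :
    eigenSum mul (φ a) S = (eigenSum mul a S).map (φ : V →ₗ[ℝ] V) := by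
  simp only [eigenSum, map_eigen hφ, Submodule.map_iSup]

/-- Transport of a Majorana pair by an automorphism commuting with the involution. -/
theorem pair_map {μ φ : V ≃ₗ[ℝ] V} {a : V} (h : IsMajoranaPair mul B μ a)
    (hφ : ∀ u v, φ (mul u v) = mul (φ u) (φ v)) (hc : ∀ v, μ (φ v) = φ (μ v)) :
    IsMajoranaPair mul B μ (φ a) := by
  obtain ⟨hm, hb, ⟨⟨hne, hid, htop, hfus⟩, hprim⟩, hfix, hneg⟩ := h
  refine ⟨hm, hb, ⟨⟨?_, ?_, ?_, ?_⟩, ?_⟩, ?_, ?_⟩
  · simpa using hne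
  · rw [← hφ, hid]
  · rw [map_eigenSum hφ, htop, Submodule.map_top, LinearEquiv.range]
  · intro c hc' d hd u hu v hv
    rw [map_eigen hφ, Submodule.mem_map] at hu hv
    obtain ⟨u', hu', rfl⟩ := hu
    obtain ⟨v', hv', rfl⟩ := hv
    rw [map_eigenSum hφ, LinearEquiv.coe_coe, ← hφ]
    exact Submodule.mem_map_of_mem (hfus c hc' d hd u' hu' v' hv')
  · rw [map_eigen hφ, hprim, Submodule.map_span, Set.image_singleton, LinearEquiv.coe_coe]
  · intro v hv
    rw [map_eigenSum hφ, Submodule.mem_map] at hv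
    obtain ⟨w, hw, rfl⟩ := hv
    have := hfix w hw
    simp only [LinearEquiv.coe_coe] at this ⊢
    rw [hc, this]
  · intro v hv
    rw [map_eigen hφ, Submodule.mem_map] at hv
    obtain ⟨w, hw, rfl⟩ := hv
    have := hneg w hw
    simp only [LinearEquiv.coe_coe] at this ⊢
    rw [hc, this, map_neg]

end CfsgLib.Majorana
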