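import Cfsg.Agent.Majorana.Sequence

/-!
Products and inner products in the algebra spanned by a sequence of Majorana axes, and the two
polynomial equations they force on the inner products.
-/

set_option autoImplicit false

namespace CfsgLib.Majorana

open Cfsg.Axial

variable {V : Type*} [AddCommGroup V] [Module ℝ V]
variable {mul : V →ₗ[ℝ] V →ₗ[ℝ] V} {B : LinearMap.BilinForm ℝ V}
variable {a : ℤ → V} {t : ℤ → (V ≃ₗ[ℝ] V)}

namespace AxisSeq

theorem axis_mul_adj (hV : IsMajoranaAmbient mul B) (h : AxisSeq mul B a t) (i : ℤ) :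
    mul (a i) (adjSigma mul a) =
      ((31 * B (a 0) (a 1) - 1) / 32) • a i + (7 / 1024 : ℝ) •
        ((1 / 2 : ℝ) • (a (i - 1) + a (i + 1)) + (32 : ℝ) • adjSigma mul a
          - (32 * B (a 0) (a 1) - 1) • a i) := by
  have := (axis_facts hV (h.pair i) (h.norm i) (h.idem (i + 1)) (h.norm (i + 1)) rfl rfl rfl).2.1
  rw [h.refl, show 2 * i - (i + 1) = i - 1 by ring, h.lam_const hV, ← sigmaVec, h.adj_sigma hV]
    at this
  rw [this]
  module

theorem axis_mul_gap (hV : IsMajoranaAmbient mul B) (h : AxisSeq mul B a t) (i : ℤ) :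
    mul (a i) (gapSigma mul a (i + 1)) =
      ((31 * B (a i) (a (i + 2)) - 1) / 32) • a i + (7 / 1024 : ℝ) •
        ((1 / 2 : ℝ) • (a (i - 2) + a (i + 2)) + (32 : ℝ) • gapSigma mul a (i + 1)
          - (32 * B (a i) (a (i + 2)) - 1) • a i) := by
  have := (axis_facts hV (h.pair i) (h.norm i) (h.idem (i + 2)) (h.norm (i + 2)) rfl rfl rfl).2.1
  have e : sigmaVec mul (a i) (a (i + 2)) = gapSigma mul a (i + 1) := by
    rw [gapSigma, show i + 1 - 1 = i by ring, show i + 1 + 1 = i + 2 by ring]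
  rw [h.refl, show 2 * i - (i + 2) = i - 2 by ring, ← sigmaVec, e] at this
  rw [this]
  module

/-- `(a₀, a₂) = (a₋₁, a₁)`. -/
theorem gap_form_eq (hV : IsMajoranaAmbient mul B) (h : AxisSeq mul B a t) :
    B (a (-1)) (a 1) = B (a 0) (a 2) := by
  have h0 := congrArg (B (a 1)) (h.axis_mul_adj hV 0)
  have h1 := congrArg (B (a 0)) (h.axis_mul_adj hV 1)
  have e : B (a 1) (mul (a 0) (adjSigma mul a)) = B (a 0) (mul (a 1) (adjSigma mul a)) := by
    rw [hV.2.2.2.1, hV.2.2.2.1, hV.1 (a 1) (a 0)]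
  rw [h0, h1] at e
  norm_num [map_add, map_sub, map_smul, smul_eq_mul, h.norm, h.form_adj hV] at e
  rw [hV.2.1 (a 1) (a 0), hV.2.1 (a 1) (a (-1))] at e
  linear_combination (2048 / 7 : ℝ) * e

theorem gap_form_const (hV : IsMajoranaAmbient mul B) (h : AxisSeq mul B a t) (i : ℤ) :
    B (a i) (a (i + 2)) = B (a 0) (a 2) := by
  rcases Int.even_or_odd' i with ⟨k, rfl | rfl⟩
  · have := h.gap_form_two hV k 1
    rw [show 2 * k + 1 - 1 = 2 * k by ring, show 2 * k + 1 + 1 = 2 * k + 2 by ring] at this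
    simpa using this
  · have := h.gap_form_two hV (k + 1) 0
    rw [show 2 * (k + 1) + 0 - 1 = 2 * k + 1 by ring, show 2 * (k + 1) + 0 + 1 = 2 * k + 1 + 2 by ring]
      at this
    rw [this]
    simpa using h.gap_form_eq hV

end AxisSeq

/-- The invariants and their transformation under shifts and reversals. -/
theorem AxisSeq.shift_invariants (hV : IsMajoranaAmbient mul B) (h : AxisSeq mul B a t) (k : ℤ) :
    B (a (k + 0)) (a (k + 1)) = B (a 0) (a 1) ∧ B (a (k + 0)) (a (k + 2)) = B (a 0) (a 2) := by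
  rw [add_zero]
  exact ⟨h.lam_const hV k, h.gap_form_const hV k⟩

theorem AxisSeq.reverse_invariants (hV : IsMajoranaAmbient mul B) (h : AxisSeq mul B a t) (k : ℤ) :
    B (a (k - 0)) (a (k - 1)) = B (a 0) (a 1) ∧ B (a (k - 0)) (a (k - 2)) = B (a 0) (a 2) := by
  rw [sub_zero]
  constructor
  · rw [hV.2.1, ← h.lam_const hV (k - 1), show k - 1 + 1 = k by ring]
  · rw [hV.2.1, ← h.gap_form_const hV (k - 2), show k - 2 + 2 = k by ring]

theorem AxisSeq.reverse_adjSigma (hV : IsMajoranaAmbient mul B) (h : AxisSeq mul B a t) (k : ℤ) :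
    adjSigma mul (fun i => a (k - i)) = adjSigma mul a := by
  show sigmaVec mul (a (k - 0)) (a (k - 1)) = adjSigma mul a
  rw [sub_zero, sigmaVec_comm hV, ← h.adj_sigma hV (k - 1), show k - 1 + 1 = k by ring]

theorem AxisSeq.reverse_gapSigma (hV : IsMajoranaAmbient mul B) (k i : ℤ) :
    gapSigma mul (fun i => a (k - i)) i = gapSigma mul a (k - i) := by
  show sigmaVec mul (a (k - (i - 1))) (a (k - (i + 1))) = gapSigma mul a (k - i)
  rw [sigmaVec_comm hV, gapSigma, show k - (i + 1) = k - i - 1 by ring,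
    show k - (i - 1) = k - i + 1 by ring]

namespace AxisSeq

/-- The product rules near position `0`. -/
theorem rules (hV : IsMajoranaAmbient mul B) (h : AxisSeq mul B a t) {l m : ℝ}
    (hl : B (a 0) (a 1) = l) (hm : B (a 0) (a 2) = m) :
    (mul (a 0) (a 1) = adjSigma mul a + (1 / 32 : ℝ) • (a 0 + a 1)) ∧
    (mul (a 0) (a (-1)) = adjSigma mul a + (1 / 32 : ℝ) • (a (-1) + a 0)) ∧
    (mul (a 1) (a (-1)) = gapSigma mul a 0 + (1 / 32 : ℝ) • (a (-1) + a 1)) ∧
    (mul (a 0) (a 2) = gapSigma mul a 1 + (1 / 32 : ℝ) • (a 0 + a 2)) ∧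
    (mul (a 0) (a (-2)) = gapSigma mul a 1 + (1 / 32 : ℝ) • (a (-2) + a 0)) ∧
    (mul (a 0) (adjSigma mul a) = ((31 * l - 1) / 32) • a 0 + (7 / 1024 : ℝ) •
        ((1 / 2 : ℝ) • (a (-1) + a 1) + (32 : ℝ) • adjSigma mul a - (32 * l - 1) • a 0)) ∧
    (mul (a 1) (adjSigma mul a) = ((31 * l - 1) / 32) • a 1 + (7 / 1024 : ℝ) •
        ((1 / 2 : ℝ) • (a 0 + a 2) + (32 : ℝ) • adjSigma mul a - (32 * l - 1) • a 1)) ∧
    (mul (a (-1)) (adjSigma mul a) = ((31 * l - 1) / 32) • a (-1) + (7 / 1024 : ℝ) •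
        ((1 / 2 : ℝ) • (a (-2) + a 0) + (32 : ℝ) • adjSigma mul a - (32 * l - 1) • a (-1))) ∧
    (mul (a 0) (gapSigma mul a 1) = ((31 * m - 1) / 32) • a 0 + (7 / 1024 : ℝ) •
        ((1 / 2 : ℝ) • (a (-2) + a 2) + (32 : ℝ) • gapSigma mul a 1 - (32 * m - 1) • a 0)) := by
  subst hl hm
  refine ⟨mul_eq_sigmaVec _ _, ?_, ?_, ?_, ?_, ?_, ?_, ?_, ?_⟩
  · rw [hV.1, mul_eq_sigmaVec, ← h.adj_sigma hV (-1)]; rfl
  · rw [hV.1, mul_eq_sigmaVec]; rfl
  · rw [mul_eq_sigmaVec]; rfl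
  · rw [hV.1, mul_eq_sigmaVec, ← h.gap_sigma_two hV (-1) 1]; rfl
  · simpa using h.axis_mul_adj hV 0
  · simpa using h.axis_mul_adj hV 1
  · simpa using h.axis_mul_adj hV (-1)
  · simpa using h.axis_mul_gap hV 0

/-- The product of `a₀` with `σ(a₋₁, a₁)`. -/
theorem axis_mul_other (hV : IsMajoranaAmbient mul B) (h : AxisSeq mul B a t) {l m : ℝ}
    (hl : B (a 0) (a 1) = l) (hm : B (a 0) (a 2) = m) :
    mul (a 0) (gapSigma mul a 0) =
      (7 / 96 : ℝ) • gapSigma mul a 1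
      + ((512 * l - 19) / 3072) • a (-1)
      + (7 / 6144 : ℝ) • a (-2)
      + ((-32768 * l ^ 2 - 128 * m + 5120 * l - 127) / 3072) • a 0
      + ((512 * l - 19) / 3072) • a 1
      + (7 / 6144 : ℝ) • a 2
      + ((512 * l - 19) / 48) • adjSigma mul a := by
  obtain ⟨r1, r2, r3, r4, r5, r6, r7, r8, r9⟩ := h.rules hV hl hm
  obtain ⟨-, -, f1, -, f3⟩ := axis_facts hV (h.pair 0) (h.norm 0) (h.idem 1) (h.norm 1)
    (s := adjSigma mul a) rfl rfl rfl
  rw [h.refl, show (2 * 0 - 1 : ℤ) = -1 from rfl] at f1 f3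
  rw [hV.2.1 (a 1) (a (-1)), h.gap_form_eq hV, hl, hm] at f3
  rw [hl] at f1
  simp only [map_add, map_sub, map_smul, LinearMap.add_apply, LinearMap.sub_apply,
    LinearMap.smul_apply, hV.1 (a 1) (a 0), hV.1 (a (-1)) (a 0), hV.1 (a (-1)) (a 1),
    hV.1 (adjSigma mul a) (a 0), hV.1 (adjSigma mul a) (a 1), hV.1 (adjSigma mul a) (a (-1)),
    h.idem, r1, r2, r3, r4, r5, r6, r7, r8, r9, smul_add, smul_sub] at f1 f3
  linear_combination (norm := module) (8 / 3 : ℝ) • f1 - (8 / 3 : ℝ) • f3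

/-- The product `σ ∘ σ`. -/
theorem adj_mul_adj (hV : IsMajoranaAmbient mul B) (h : AxisSeq mul B a t) {l m : ℝ}
    (hl : B (a 0) (a 1) = l) (hm : B (a 0) (a 2) = m) :
    mul (adjSigma mul a) (adjSigma mul a) =
      ((-7) / 1536 : ℝ) • gapSigma mul a 1
      + (7 / 2048 : ℝ) • gapSigma mul a 0
      + ((12544 * l - 245) / 196608) • a (-1)
      + (49 / 196608 : ℝ) • a (-2)
      + ((114688 * l ^ 2 + 448 * m - 1792 * l - 7) / 98304) • a 0
      + ((12544 * l - 245) / 196608) • a 1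
      + (49 / 196608 : ℝ) • a 2
      + ((-640 * l - 13) / 1536) • adjSigma mul a := by
  obtain ⟨r1, r2, r3, r4, r5, r6, r7, r8, r9⟩ := h.rules hV hl hm
  have r10 := h.axis_mul_other hV hl hm
  obtain ⟨-, -, f1, f2, -⟩ := axis_facts hV (h.pair 0) (h.norm 0) (h.idem 1) (h.norm 1)
    (s := adjSigma mul a) rfl rfl rfl
  rw [h.refl, show (2 * 0 - 1 : ℤ) = -1 from rfl, hl] at f1 f2
  simp only [map_add, map_sub, map_smul, LinearMap.add_apply, LinearMap.sub_apply,
    LinearMap.smul_apply, hV.1 (a 1) (a 0), hV.1 (a (-1)) (a 0), hV.1 (a (-1)) (a 1),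
    hV.1 (adjSigma mul a) (a 0), hV.1 (adjSigma mul a) (a 1), hV.1 (adjSigma mul a) (a (-1)),
    h.idem, r1, r2, r3, r4, r5, r6, r7, r8, r9, r10, smul_add, smul_sub] at f1 f2
  linear_combination (norm := module) (1 / 4 : ℝ) • f1 + (1 / 4 : ℝ) • f2

/-- The recurrence: `a₃` in terms of the other axes and the sigmas. -/
theorem axis_three (hV : IsMajoranaAmbient mul B) (h : AxisSeq mul B a t) {l m : ℝ}
    (hl : B (a 0) (a 1) = l) (hm : B (a 0) (a 2) = m) :
    a 3 =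
      (-32 : ℝ) • gapSigma mul a 1
      + (32 : ℝ) • gapSigma mul a 0
      + (256 * l - 6) • a (-1)
      + a (-2)
      + ((32768 * l ^ 2 + 128 * m - 2304 * l + 33) / 7) • a 0
      + ((-32768 * l ^ 2 - 128 * m + 2304 * l - 33) / 7) • a 1
      + (-256 * l + 6) • a 2 := by
  have T0 := h.adj_mul_adj hV hl hm
  obtain ⟨i1, i2⟩ := h.reverse_invariants hV 1
  have T1 := (h.reverse 1).adj_mul_adj hV (i1.trans hl) (i2.trans hm)
  rw [h.reverse_adjSigma hV, reverse_gapSigma hV, reverse_gapSigma hV] at T1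
  norm_num only at T1
  rw [T0] at T1
  linear_combination (norm := module) (-196608 / 49 : ℝ) • T1

/-- The product of `a₀` and `a₃`. -/
theorem axis_zero_mul_three (hV : IsMajoranaAmbient mul B) (h : AxisSeq mul B a t) {l m : ℝ}
    (hl : B (a 0) (a 1) = l) (hm : B (a 0) (a 2) = m) :
    mul (a 0) (a 3) =
      ((-768 * l + 7) / 3) • gapSigma mul a 1
      + ((1280 * l - 37) / 96) • a (-1)
      + ((-1) / 24 : ℝ) • a (-2)
      + ((1409024 * l ^ 2 - 2560 * m - 89216 * l + 1363) / 336) • a 0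
      + ((-12288 * l ^ 2 - 48 * m + 1312 * l - 29) / 84) • a 1
      + ((-768 * l + 11) / 96) • a 2
      + ((-98304 * l ^ 2 - 384 * m + 19456 * l - 491) / 21) • adjSigma mul a := by
  obtain ⟨r1, r2, r3, r4, r5, r6, r7, r8, r9⟩ := h.rules hV hl hm
  have r10 := h.axis_mul_other hV hl hm
  rw [h.axis_three hV hl hm]
  simp only [map_add, map_smul, h.idem, r1, r2, r4, r5, r9, r10]
  module

/-- The inner products with the sigmas. -/
theorem form_rules (hV : IsMajoranaAmbient mul B) (h : AxisSeq mul B a t) {l m : ℝ}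
    (hl : B (a 0) (a 1) = l) (hm : B (a 0) (a 2) = m) (k : ℤ) :
    B (a k) (adjSigma mul a) = l - (1 + l) / 32 ∧
    B (a (2 * k)) (gapSigma mul a 1) = m - (1 + m) / 32 ∧
    B (a (2 * k + 1)) (gapSigma mul a 0) = m - (1 + m) / 32 ∧
    B (a (2 * k)) (gapSigma mul a 0) = (l - (1 + l) / 32) + (l + m) / 32 - l / 16 ∧
    B (a (2 * k + 1)) (gapSigma mul a 1) = (l - (1 + l) / 32) + (l + m) / 32 - l / 16 := by
  refine ⟨?_, ?_, ?_, ?_, ?_⟩
  · rw [h.form_adj hV, hl]
  · rw [← h.gap_sigma_two hV k 1, h.form_gap_same hV, h.gap_form_const hV, hm]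
  · rw [← h.gap_sigma_two hV (k + 1) 0, show 2 * (k + 1) + 0 = 2 * k + 1 + 1 by ring,
      h.form_gap_same hV, h.gap_form_const hV, hm]
  · rw [← h.gap_sigma_two hV k 0, add_zero, h.form_gap_other hV, hl,
      show B (a (2 * k - 1)) (a (2 * k + 1)) = B (a (2 * k - 1)) (a (2 * k - 1 + 2)) by
        congr 2; ring,
      h.gap_form_const hV, hm]
  · rw [← h.gap_sigma_two hV k 1, h.form_gap_other hV, hl,
      show B (a (2 * k + 1 - 1)) (a (2 * k + 1 + 1)) = B (a (2 * k)) (a (2 * k + 2)) by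
        congr 2 <;> ring_nf,
      h.gap_form_const hV, hm]

/-- `(a₀, a₃)` as a polynomial. -/
noncomputable def distThree (l m : ℝ) : ℝ :=
  (-32768 * l ^ 3 - 1920 * l * m + 36864 * l ^ 2 - 33 * m - 2169 * l + 33) / 7

/-- `(a₀, a₄)` as a polynomial. -/
noncomputable def distFour (l m : ℝ) : ℝ :=
  (8388608 * l ^ 4 + 458752 * l ^ 2 * m - 9601024 * l ^ 3 - 128 * m ^ 2 - 640 * l * m
    + 774144 * l ^ 2 - 21 * m - 19840 * l + 156) / 7

/-- `(a₀, a₅)` as a polynomial. -/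
noncomputable def distFive (l m : ℝ) : ℝ :=
  (-13958643712 * l ^ 5 - 754974720 * l ^ 3 * m + 16273899520 * l ^ 4 + 475136 * l * m ^ 2
    + 12582912 * l ^ 2 * m - 1633419264 * l ^ 3 - 256 * m ^ 2 + 259584 * l * m + 60784640 * l ^ 2
    - 5256 * m - 964047 * l + 5512) / 49

theorem form_near (hV : IsMajoranaAmbient mul B) (h : AxisSeq mul B a t) {l m : ℝ}
    (hl : B (a 0) (a 1) = l) (hm : B (a 0) (a 2) = m) (i : ℤ) :
    B (a i) (a (i + 1)) = l ∧ B (a (i + 1)) (a i) = l ∧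
      B (a i) (a (i + 2)) = m ∧ B (a (i + 2)) (a i) = m := by
  refine ⟨?_, ?_, ?_, ?_⟩
  · rw [h.lam_const hV, hl]
  · rw [hV.2.1, h.lam_const hV, hl]
  · rw [h.gap_form_const hV, hm]
  · rw [hV.2.1, h.gap_form_const hV, hm]

theorem form_three (hV : IsMajoranaAmbient mul B) (h : AxisSeq mul B a t) {l m : ℝ}
    (hl : B (a 0) (a 1) = l) (hm : B (a 0) (a 2) = m) :
    B (a 0) (a 3) = distThree l m := by
  obtain ⟨-, e1, -, e0, -⟩ := h.form_rules hV hl hm 0
  obtain ⟨n1, -, n2, -⟩ := h.form_near hV hl hm 0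
  obtain ⟨-, p1, -, -⟩ := h.form_near hV hl hm (-1)
  obtain ⟨-, -, -, p2⟩ := h.form_near hV hl hm (-2)
  norm_num at e1 e0 n1 n2 p1 p2
  rw [h.axis_three hV hl hm]
  simp only [map_add, map_smul, smul_eq_mul, h.norm, e1, e0, n1, n2, p1, p2, distThree]
  ring

theorem form_three_at (hV : IsMajoranaAmbient mul B) (h : AxisSeq mul B a t) {l m : ℝ}
    (hl : B (a 0) (a 1) = l) (hm : B (a 0) (a 2) = m) (i : ℤ) :
    B (a i) (a (i + 3)) = distThree l m := by
  obtain ⟨i1, i2⟩ := h.shift_invariants hV i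
  have := (h.shift i).form_three hV (i1.trans hl) (i2.trans hm)
  simpa using this

theorem form_four (hV : IsMajoranaAmbient mul B) (h : AxisSeq mul B a t) {l m : ℝ}
    (hl : B (a 0) (a 1) = l) (hm : B (a 0) (a 2) = m) :
    B (a (-1)) (a 3) = distFour l m := by
  obtain ⟨-, -, e0, -, e1⟩ := h.form_rules hV hl hm (-1)
  obtain ⟨n1, -, n2, -⟩ := h.form_near hV hl hm (-1)
  obtain ⟨-, p1, -, -⟩ := h.form_near hV hl hm (-2)
  have d3 := h.form_three_at hV hl hm (-1)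
  norm_num at e1 e0 n1 n2 p1 d3
  rw [h.axis_three hV hl hm]
  simp only [map_add, map_smul, smul_eq_mul, h.norm, e1, e0, n1, n2, p1, d3, distThree, distFour]
  ring

theorem form_four_at (hV : IsMajoranaAmbient mul B) (h : AxisSeq mul B a t) {l m : ℝ}
    (hl : B (a 0) (a 1) = l) (hm : B (a 0) (a 2) = m) (i : ℤ) :
    B (a i) (a (i + 4)) = distFour l m := by
  obtain ⟨i1, i2⟩ := h.shift_invariants hV (i + 1)
  have := (h.shift (i + 1)).form_four hV (i1.trans hl) (i2.trans hm)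
  simp only [show i + 1 + -1 = i by ring, show i + 1 + 3 = i + 4 by ring] at this
  exact this

theorem form_five (hV : IsMajoranaAmbient mul B) (h : AxisSeq mul B a t) {l m : ℝ}
    (hl : B (a 0) (a 1) = l) (hm : B (a 0) (a 2) = m) :
    B (a (-2)) (a 3) = distFive l m := by
  obtain ⟨-, e1, -, e0, -⟩ := h.form_rules hV hl hm (-1)
  obtain ⟨n1, -, n2, -⟩ := h.form_near hV hl hm (-2)
  have d3 := h.form_three_at hV hl hm (-2)
  have d4 := h.form_four_at hV hl hm (-2)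
  norm_num at e1 e0 n1 n2 d3 d4
  rw [h.axis_three hV hl hm]
  simp only [map_add, map_smul, smul_eq_mul, h.norm, e1, e0, n1, n2, d3, d4,
    distThree, distFour, distFive]
  ring

theorem form_five_at (hV : IsMajoranaAmbient mul B) (h : AxisSeq mul B a t) {l m : ℝ}
    (hl : B (a 0) (a 1) = l) (hm : B (a 0) (a 2) = m) (i : ℤ) :
    B (a i) (a (i + 5)) = distFive l m := by
  obtain ⟨i1, i2⟩ := h.shift_invariants hV (i + 2)
  have := (h.shift (i + 2)).form_five hV (i1.trans hl) (i2.trans hm)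
  simp only [show i + 2 + -2 = i by ring, show i + 2 + 3 = i + 5 by ring] at this
  exact this

/-- First equation, from `(a₁a₋₂, a₋₁) = (a₋₂, a₁a₋₁)`. -/
theorem equation_one (hV : IsMajoranaAmbient mul B) (h : AxisSeq mul B a t) {l m : ℝ}
    (hl : B (a 0) (a 1) = l) (hm : B (a 0) (a 2) = m) :
    -6291456 * l ^ 4 - 122880 * l ^ 2 * m + 6979584 * l ^ 3 - 384 * m ^ 2 - 26688 * l * m
      - 552960 * l ^ 2 + 501 * m + 14400 * l - 117 = 0 := by
  obtain ⟨i1, i2⟩ := h.reverse_invariants hV 1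
  have F := (h.reverse 1).axis_zero_mul_three hV (i1.trans hl) (i2.trans hm)
  rw [h.reverse_adjSigma hV, reverse_gapSigma hV] at F
  norm_num only at F
  obtain ⟨-, -, r3, -, -, -, -, -, -⟩ := h.rules hV hl hm
  have e : B (a (-1)) (mul (a 1) (a (-2))) = B (a (-2)) (mul (a 1) (a (-1))) := by
    rw [hV.1 (a 1) (a (-1)), hV.1 (a 1) (a (-2)), hV.2.2.2.1, hV.2.2.2.1,
      hV.1 (a (-1)) (a (-2))]
  rw [F, r3] at e
  obtain ⟨es, -, e0, -, -⟩ := h.form_rules hV hl hm (-1)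
  obtain ⟨-, -, -, e0', -⟩ := h.form_rules hV hl hm (-1)
  obtain ⟨n1, -, n2, -⟩ := h.form_near hV hl hm (-1)
  obtain ⟨q1, -, -, -⟩ := h.form_near hV hl hm (-2)
  have d3 := h.form_three_at hV hl hm (-1)
  have d4 := h.form_four_at hV hl hm (-1)
  have d3' := h.form_three_at hV hl hm (-2)
  norm_num at es e0 e0' n1 n2 q1 d3 d4 d3'
  simp only [map_add, map_smul, smul_eq_mul, h.norm, es, e0, e0', n1, n2, q1, d3, d4, d3'] at e
  simp only [distThree, distFour] at e
  linear_combination (56 : ℝ) * e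

/-- Second equation, from `(a₀, a₀a₃) = (a₀, a₃a₀)`. -/
theorem equation_two (hV : IsMajoranaAmbient mul B) (h : AxisSeq mul B a t) {l m : ℝ}
    (hl : B (a 0) (a 1) = l) (hm : B (a 0) (a 2) = m) :
    -1610612736 * l ^ 5 - 78643200 * l ^ 3 * m + 1815085056 * l ^ 4 - 282624 * l * m ^ 2
      + 4780032 * l ^ 2 * m - 132415488 * l ^ 3 - 8352 * m ^ 2 - 497568 * l * m + 2580480 * l ^ 2
      + 8703 * m + 6048 * l - 351 = 0 := by
  obtain ⟨i1, i2⟩ := h.reverse_invariants hV 3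
  have F := (h.reverse 3).axis_zero_mul_three hV (i1.trans hl) (i2.trans hm)
  rw [h.reverse_adjSigma hV, reverse_gapSigma hV] at F
  norm_num only at F
  have G := h.axis_zero_mul_three hV hl hm
  rw [show gapSigma mul a 2 = gapSigma mul a 0 from h.gap_sigma_two hV 1 0, hV.1, G] at F
  have e := congrArg (B (a 0)) F
  obtain ⟨es, e1, -, e0, -⟩ := h.form_rules hV hl hm 0
  obtain ⟨n1, -, n2, -⟩ := h.form_near hV hl hm 0
  obtain ⟨-, p1, -, -⟩ := h.form_near hV hl hm (-1)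
  obtain ⟨-, -, -, p2⟩ := h.form_near hV hl hm (-2)
  have d3 := h.form_three_at hV hl hm 0
  have d4 := h.form_four_at hV hl hm 0
  have d5 := h.form_five_at hV hl hm 0
  norm_num at es e1 e0 n1 n2 p1 p2 d3 d4 d5
  simp only [map_add, map_smul, smul_eq_mul, h.norm, es, e1, e0, n1, n2, p1, p2, d3, d4, d5] at e
  simp only [distThree, distFour, distFive] at e
  linear_combination (196 : ℝ) * e

end AxisSeq

end CfsgLib.Majorana
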