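import Cfsg.Agent.Majorana.Dihedral

/-!
Sakuma's theorem: two Majorana involutions have product of order at most six.
-/

set_option autoImplicit false

namespace CfsgLib.Majorana

open Cfsg.Axial

variable {V : Type*} [AddCommGroup V] [Module ℝ V]
variable {mul : V →ₗ[ℝ] V →ₗ[ℝ] V} {B : LinearMap.BilinForm ℝ V}

/-- The automorphisms of the product and the form. -/
def algebraAuts (mul : V →ₗ[ℝ] V →ₗ[ℝ] V) (B : LinearMap.BilinForm ℝ V) : Subgroup (V ≃ₗ[ℝ] V) where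
  carrier := {φ | (∀ u v, φ (mul u v) = mul (φ u) (φ v)) ∧ ∀ u v, B (φ u) (φ v) = B u v}
  one_mem' := ⟨fun _ _ => rfl, fun _ _ => rfl⟩
  mul_mem' := by
    intro f g hf hg
    refine ⟨fun u v => ?_, fun u v => ?_⟩
    · simp only [LinearEquiv.mul_apply, hg.1, hf.1]
    · simp only [LinearEquiv.mul_apply, hg.2, hf.2]
  inv_mem' := by
    intro f hf
    refine ⟨fun u v => ?_, fun u v => ?_⟩
    · apply f.injective
      show f (f.symm (mul u v)) = f (mul (f.symm u) (f.symm v))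
      rw [hf.1, f.apply_symm_apply, f.apply_symm_apply, f.apply_symm_apply]
    · show B (f.symm u) (f.symm v) = B u v
      rw [← hf.2, f.apply_symm_apply, f.apply_symm_apply]

theorem pair_conj {μ φ : V ≃ₗ[ℝ] V} {a : V} (h : IsMajoranaPair mul B μ a)
    (hφ : φ ∈ algebraAuts mul B) : IsMajoranaPair mul B (φ * μ * φ⁻¹) (φ a) := by
  have hmem : φ * μ * φ⁻¹ ∈ algebraAuts mul B :=
    mul_mem (mul_mem hφ ⟨h.1, h.2.1⟩) (inv_mem hφ)
  obtain ⟨-, -, ⟨⟨hne, hid, htop, hfus⟩, hprim⟩, hfix, hneg⟩ := h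
  refine ⟨hmem.1, hmem.2, ⟨⟨?_, ?_, ?_, ?_⟩, ?_⟩, ?_, ?_⟩
  · simpa using hne
  · rw [← hφ.1, hid]
  · rw [map_eigenSum hφ.1, htop, Submodule.map_top, LinearEquiv.range]
  · intro c hc d hd u hu v hv
    rw [map_eigen hφ.1, Submodule.mem_map] at hu hv
    obtain ⟨u', hu', rfl⟩ := hu
    obtain ⟨v', hv', rfl⟩ := hv
    rw [map_eigenSum hφ.1, LinearEquiv.coe_coe, ← hφ.1]
    exact Submodule.mem_map_of_mem (hfus c hc d hd u' hu' v' hv')
  · rw [map_eigen hφ.1, hprim, Submodule.map_span, Set.image_singleton, LinearEquiv.coe_coe]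
  · intro v hv
    rw [map_eigenSum hφ.1, Submodule.mem_map] at hv
    obtain ⟨w, hw, rfl⟩ := hv
    show φ (μ (φ.symm (φ w))) = φ w
    rw [φ.symm_apply_apply]
    exact congrArg φ (hfix w hw)
  · intro v hv
    rw [map_eigen hφ.1, Submodule.mem_map] at hv
    obtain ⟨w, hw, rfl⟩ := hv
    show φ (μ (φ.symm (φ w))) = -φ w
    rw [φ.symm_apply_apply, ← map_neg]
    exact congrArg φ (hneg w hw)

/-- A Majorana involution is determined by its axis. -/
theorem involution_eq_of_axis {μ μ' : V ≃ₗ[ℝ] V} {a : V} (h : IsMajoranaPair mul B μ a)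
    (h' : IsMajoranaPair mul B μ' a) : μ = μ' := by
  apply LinearEquiv.toLinearMap_injective
  have hle : eigenSum mul a majoranaSpectrum ≤
      LinearMap.eqLocus (μ : V →ₗ[ℝ] V) (μ' : V →ₗ[ℝ] V) := by
    refine iSup₂_le fun c hc v hv => ?_
    simp only [majoranaSpectrum, Set.mem_insert_iff, Set.mem_singleton_iff] at hc
    show (μ : V →ₗ[ℝ] V) v = (μ' : V →ₗ[ℝ] V) v
    rcases hc with rfl | rfl | rfl | rfl
    · rw [h.2.2.2.1 v (eigen_le_eigenSum (by simp) hv), h'.2.2.2.1 v (eigen_le_eigenSum (by simp) hv)]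
    · rw [h.2.2.2.1 v (eigen_le_eigenSum (by simp) hv), h'.2.2.2.1 v (eigen_le_eigenSum (by simp) hv)]
    · rw [h.2.2.2.1 v (eigen_le_eigenSum (by simp) hv), h'.2.2.2.1 v (eigen_le_eigenSum (by simp) hv)]
    · rw [h.2.2.2.2 v hv, h'.2.2.2.2 v hv]
  ext v
  exact hle (by rw [h.2.2.1.1.2.2.1]; trivial)

theorem involution_sq (hV : IsMajoranaAmbient mul B) {μ : V ≃ₗ[ℝ] V} {a : V}
    (h : IsMajoranaPair mul B μ a) (hn : B a a = 1) : μ * μ = 1 := by
  apply LinearEquiv.ext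
  intro q
  obtain ⟨u, v, w, h0, h4, h32, hd, hd'⟩ := exists_four_parts hV h hn q
  have hx : B a q • a + u + v ∈ eigenSum mul a ({1, 0, 1 / 4} : Set ℝ) := by
    refine Submodule.add_mem _ (Submodule.add_mem _ (Submodule.smul_mem _ _ ?_) ?_) ?_
    · exact eigen_le_eigenSum (by simp : (1 : ℝ) ∈ ({1, 0, 1 / 4} : Set ℝ))
        (mem_eigen.mpr (by rw [one_smul]; exact h.2.2.1.1.2.1))
    · exact eigen_le_eigenSum (by simp : (0 : ℝ) ∈ ({1, 0, 1 / 4} : Set ℝ))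
        (mem_eigen.mpr (by rw [zero_smul]; exact h0))
    · exact eigen_le_eigenSum (by simp : (1 / 4 : ℝ) ∈ ({1, 0, 1 / 4} : Set ℝ)) (mem_eigen.mpr h4)
  show μ (μ q) = q
  rw [hd', map_sub]
  rw [show μ (B a q • a + u + v) = B a q • a + u + v from h.2.2.2.1 _ hx,
    show μ w = -w from h.2.2.2.2 _ (mem_eigen.mpr h32), sub_neg_eq_add]
  exact hd.symm

theorem eq_of_unit_form_one (hV : IsMajoranaAmbient mul B) {x y : V} (hx : B x x = 1)
    (hy : B y y = 1) (hxy : B x y = 1) : x = y := by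
  by_contra hne
  have := hV.2.2.1 (x - y) (sub_ne_zero.mpr hne)
  simp only [map_sub, LinearMap.sub_apply, hx, hy, hxy, hV.2.1 y x] at this
  norm_num at this

/-- The nine solutions of the two equations. -/
theorem dihedral_solutions {l m : ℝ}
    (h1 : -6291456 * l ^ 4 - 122880 * l ^ 2 * m + 6979584 * l ^ 3 - 384 * m ^ 2 - 26688 * l * m
      - 552960 * l ^ 2 + 501 * m + 14400 * l - 117 = 0)
    (h2 : -1610612736 * l ^ 5 - 78643200 * l ^ 3 * m + 1815085056 * l ^ 4 - 282624 * l * m ^ 2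
      + 4780032 * l ^ 2 * m - 132415488 * l ^ 3 - 8352 * m ^ 2 - 497568 * l * m + 2580480 * l ^ 2
      + 8703 * m + 6048 * l - 351 = 0) :
    m = 1 ∨ (l = 1 / 64 ∧ m = 1 / 64) ∨ (l = 1 / 64 ∧ m = 1 / 8) ∨ (l = 1 / 32 ∧ m = 0) ∨
      (l = 13 / 256 ∧ m = 13 / 256) ∨ (l = 3 / 128 ∧ m = 3 / 128) ∨
      (l = 5 / 256 ∧ m = 13 / 256) := by
  set A := (47185920 * l ^ 3 + 108380160 * l ^ 2 - 1143360 * l - 8775) / 4 with hA
  set C := (12079595520 * l ^ 5 - 12740198400 * l ^ 4 + 491028480 * l ^ 3 + 16035840 * l ^ 2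
    - 884160 * l + 8775) / 4 with hC
  have hlin : A * m + C = 0 := by
    rw [hA, hC]
    linear_combination h2 - ((2944 * l + 87) / 4) * h1
  have hP : (10724872152620099174400 : ℝ) *
      (l * ((l - 1 / 64) * ((l - 1 / 64) * ((l - 5 / 256) * ((l - 3 / 128) * ((l - 1 / 32) *
        ((l - 13 / 256) * ((l - 1 / 8) * (l - 1))))))))) = 0 := by
    have e : A ^ 2 * (-6291456 * l ^ 4 - 122880 * l ^ 2 * m + 6979584 * l ^ 3 - 384 * m ^ 2
        - 26688 * l * m - 552960 * l ^ 2 + 501 * m + 14400 * l - 117)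
        - (A * m + C) * (-384 * (A * m - C) + (-122880 * l ^ 2 - 26688 * l + 501) * A) = 0 := by
      rw [h1, hlin]; ring
    rw [← e, hA, hC]
    ring
  simp only [mul_eq_zero, sub_eq_zero] at hP
  rw [hA, hC] at hlin
  rcases hP with h | h | h | h | h | h | h | h | h | h
  · norm_num at h
  · subst h; left; linarith
  all_goals subst h
  · have : (m - 1 / 64) * (m - 1 / 8) = 0 := by linear_combination (-1 / 384 : ℝ) * h1
    rcases mul_eq_zero.mp this with e | e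
    · exact Or.inr (Or.inl ⟨rfl, sub_eq_zero.mp e⟩)
    · exact Or.inr (Or.inr (Or.inl ⟨rfl, sub_eq_zero.mp e⟩))
  · have : (m - 1 / 64) * (m - 1 / 8) = 0 := by linear_combination (-1 / 384 : ℝ) * h1
    rcases mul_eq_zero.mp this with e | e
    · exact Or.inr (Or.inl ⟨rfl, sub_eq_zero.mp e⟩)
    · exact Or.inr (Or.inr (Or.inl ⟨rfl, sub_eq_zero.mp e⟩))
  · exact Or.inr (Or.inr (Or.inr (Or.inr (Or.inr (Or.inr ⟨rfl, by linarith⟩)))))
  · exact Or.inr (Or.inr (Or.inr (Or.inr (Or.inr (Or.inl ⟨rfl, by linarith⟩)))))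
  · exact Or.inr (Or.inr (Or.inr (Or.inl ⟨rfl, by linarith⟩)))
  · exact Or.inr (Or.inr (Or.inr (Or.inr (Or.inl ⟨rfl, by linarith⟩))))
  · left; linarith
  · left; linarith

/-- A sequence of Majorana axes has period at most six. -/
theorem AxisSeq.exists_period (hV : IsMajoranaAmbient mul B) {a : ℤ → V} {t : ℤ → (V ≃ₗ[ℝ] V)}
    (h : AxisSeq mul B a t) : ∃ n : ℕ, 1 ≤ n ∧ n ≤ 6 ∧ a n = a 0 := by
  obtain ⟨l, hl⟩ : ∃ l, B (a 0) (a 1) = l := ⟨_, rfl⟩
  obtain ⟨m, hm⟩ : ∃ m, B (a 0) (a 2) = m := ⟨_, rfl⟩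
  suffices ∃ n : ℕ, 1 ≤ n ∧ n ≤ 6 ∧ B (a 0) (a n) = 1 by
    obtain ⟨n, h1, h6, hn⟩ := this
    exact ⟨n, h1, h6, (eq_of_unit_form_one hV (h.norm 0) (h.norm n) hn).symm⟩
  rcases dihedral_solutions (h.equation_one hV hl hm) (h.equation_two hV hl hm) with
    hm1 | ⟨hl', hm'⟩ | ⟨hl', hm'⟩ | ⟨hl', hm'⟩ | ⟨hl', hm'⟩ | ⟨hl', hm'⟩ | ⟨hl', hm'⟩
  · exact ⟨2, by norm_num, by norm_num, by rw [Nat.cast_ofNat, hm, hm1]⟩
  · exact ⟨3, by norm_num, by norm_num, by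
      rw [Nat.cast_ofNat, h.form_three hV hl hm, hl', hm']; norm_num [AxisSeq.distThree]⟩
  · refine ⟨4, by norm_num, by norm_num, ?_⟩
    have := h.form_four_at hV hl hm 0
    rw [zero_add] at this
    rw [Nat.cast_ofNat, this, hl', hm']; norm_num [AxisSeq.distFour]
  · refine ⟨4, by norm_num, by norm_num, ?_⟩
    have := h.form_four_at hV hl hm 0
    rw [zero_add] at this
    rw [Nat.cast_ofNat, this, hl', hm']; norm_num [AxisSeq.distFour]
  · exact ⟨3, by norm_num, by norm_num, by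
      rw [Nat.cast_ofNat, h.form_three hV hl hm, hl', hm']; norm_num [AxisSeq.distThree]⟩
  · refine ⟨5, by norm_num, by norm_num, ?_⟩
    have := h.form_five_at hV hl hm 0
    rw [zero_add] at this
    rw [Nat.cast_ofNat, this, hl', hm']; norm_num [AxisSeq.distFive]
  · refine ⟨6, by norm_num, by norm_num, ?_⟩
    have h4 := h.form_four_at hV hl hm 0
    rw [zero_add] at h4
    have e1 : B (a (2 * 0)) (a (2 * 1)) = 13 / 256 := by
      rw [mul_zero, mul_one, hm, hm']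
    have e2 : B (a (2 * 0)) (a (2 * 2)) = 13 / 256 := by
      rw [mul_zero, show (2 * 2 : ℤ) = 4 by norm_num, h4, hl', hm']
      norm_num [AxisSeq.distFour]
    have h6 := h.double.form_three hV e1 e2
    simp only [mul_zero, show (2 * 3 : ℤ) = 6 by norm_num] at h6
    rw [Nat.cast_ofNat, h6]
    norm_num [AxisSeq.distThree]

/-- Sakuma's theorem. -/
theorem sakuma_product_order (hV : IsMajoranaAmbient mul B) (μ₀ μ₁ : V ≃ₗ[ℝ] V) (a₀ a₁ : V)
    (h₀ : IsMajoranaPair mul B μ₀ a₀) (h₁ : IsMajoranaPair mul B μ₁ a₁)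
    (hn₀ : B a₀ a₀ = 1) (hn₁ : B a₁ a₁ = 1) :
    ∃ n : ℕ, 1 ≤ n ∧ n ≤ 6 ∧ (μ₀ * μ₁) ^ n = 1 := by
  have s0 := involution_sq hV h₀ hn₀
  have s1 := involution_sq hV h₁ hn₁
  set r := μ₁ * μ₀ with hr
  have hr0 : μ₀ * r * μ₀⁻¹ = r⁻¹ := by
    rw [hr, mul_inv_rev, inv_eq_of_mul_eq_one_right s0, inv_eq_of_mul_eq_one_right s1]
    calc μ₀ * (μ₁ * μ₀) * μ₀ = μ₀ * μ₁ * (μ₀ * μ₀) := by group
      _ = μ₀ * μ₁ := by rw [s0, mul_one]
  have hflip : ∀ k : ℤ, μ₀ * r ^ k = r ^ (-k) * μ₀ := by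
    intro k
    rw [zpow_neg, ← inv_zpow, ← hr0, conj_zpow]
    group
  have hμ1 : r * μ₀ = μ₁ := by rw [hr, mul_assoc, s0, mul_one]
  have hμ0a : μ₀ a₀ = a₀ := h₀.2.2.2.1 _ (eigen_le_eigenSum
    (by simp : (1 : ℝ) ∈ ({1, 0, 1 / 4} : Set ℝ)) (mem_eigen.mpr (by rw [one_smul]; exact h₀.2.2.1.1.2.1)))
  have hμ1a : μ₁ a₁ = a₁ := h₁.2.2.2.1 _ (eigen_le_eigenSum
    (by simp : (1 : ℝ) ∈ ({1, 0, 1 / 4} : Set ℝ)) (mem_eigen.mpr (by rw [one_smul]; exact h₁.2.2.1.1.2.1)))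
  have hμ0a' : μ₀ a₁ = (r ^ (-1 : ℤ)) a₁ := by
    conv_rhs => rw [← hμ1a]
    show μ₀ a₁ = (r ^ (-1 : ℤ) * μ₁) a₁
    rw [← hμ1, zpow_neg_one, inv_mul_cancel_left]
  have m0 : μ₀ ∈ algebraAuts mul B := ⟨h₀.1, h₀.2.1⟩
  have m1 : μ₁ ∈ algebraAuts mul B := ⟨h₁.1, h₁.2.1⟩
  have hrmem : ∀ k : ℤ, r ^ k ∈ algebraAuts mul B := fun k => zpow_mem (mul_mem m1 m0) k
  let a : ℤ → V := fun i => if i % 2 = 0 then (r ^ (i / 2)) a₀ else (r ^ (i / 2)) a₁
  let t : ℤ → (V ≃ₗ[ℝ] V) := fun i => r ^ i * μ₀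
  have ae : ∀ k : ℤ, a (2 * k) = (r ^ k) a₀ := fun k => by
    simp only [a]; rw [if_pos (by omega), show 2 * k / 2 = k by omega]
  have ao : ∀ k : ℤ, a (2 * k + 1) = (r ^ k) a₁ := fun k => by
    simp only [a]; rw [if_neg (by omega), show (2 * k + 1) / 2 = k by omega]
  have hseq : AxisSeq mul B a t := by
    refine ⟨fun i => ?_, fun i => ?_, fun i j => ?_⟩
    · rcases Int.even_or_odd' i with ⟨k, rfl | rfl⟩
      · have := pair_conj h₀ (hrmem k)
        rw [← ae, ← zpow_neg, mul_assoc, hflip, neg_neg, ← mul_assoc, ← zpow_add,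
          show k + k = 2 * k by ring] at this
        exact this
      · have := pair_conj h₁ (hrmem k)
        rw [← ao, ← hμ1, ← zpow_neg, mul_assoc, mul_assoc r, hflip, neg_neg, ← mul_assoc r,
          ← mul_assoc, ← zpow_one_add, ← zpow_add, show k + (1 + k) = 2 * k + 1 by ring] at this
        exact this
    · rcases Int.even_or_odd' i with ⟨k, rfl | rfl⟩
      · rw [ae, (hrmem k).2, hn₀]
      · rw [ao, (hrmem k).2, hn₁]
    · rcases Int.even_or_odd' j with ⟨k, rfl | rfl⟩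
      · rw [ae, show 2 * i - 2 * k = 2 * (i - k) by ring, ae]
        show (r ^ i * μ₀ * r ^ k) a₀ = (r ^ (i - k)) a₀
        rw [mul_assoc, hflip, ← mul_assoc, ← zpow_add, ← sub_eq_add_neg]
        show (r ^ (i - k)) (μ₀ a₀) = _
        rw [hμ0a]
      · rw [ao, show 2 * i - (2 * k + 1) = 2 * (i - k - 1) + 1 by ring, ao]
        show (r ^ i * μ₀ * r ^ k) a₁ = (r ^ (i - k - 1)) a₁
        rw [mul_assoc, hflip, ← mul_assoc, ← zpow_add, ← sub_eq_add_neg]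
        show (r ^ (i - k)) (μ₀ a₁) = _
        rw [hμ0a']
        show (r ^ (i - k) * r ^ (-1 : ℤ)) a₁ = _
        rw [← zpow_add, ← sub_eq_add_neg]
  obtain ⟨n, h1, h6, hn⟩ := hseq.exists_period hV
  refine ⟨n, h1, h6, ?_⟩
  have ht : t n = t 0 := involution_eq_of_axis (hseq.pair n) (hn ▸ hseq.pair 0)
  simp only [t, zpow_zero, one_mul, mul_eq_right, zpow_natCast] at ht
  rw [show μ₀ * μ₁ = r⁻¹ by
      rw [hr, mul_inv_rev, inv_eq_of_mul_eq_one_right s0, inv_eq_of_mul_eq_one_right s1],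
    inv_pow, ht, inv_one]

end CfsgLib.Majorana
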