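import Cfsg.Agent.Majorana.Axis

/-!
The orbit sequence of two Majorana axes, and its invariants.
-/

set_option autoImplicit false

namespace CfsgLib.Majorana

open Cfsg.Axial

variable {V : Type*} [AddCommGroup V] [Module ℝ V]

/-- A sequence of Majorana axes, each involution reflecting the sequence about its own position. -/
structure AxisSeq (mul : V →ₗ[ℝ] V →ₗ[ℝ] V) (B : LinearMap.BilinForm ℝ V) (a : ℤ → V)
    (t : ℤ → (V ≃ₗ[ℝ] V)) : Prop where
  pair : ∀ i, IsMajoranaPair mul B (t i) (a i)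
  norm : ∀ i, B (a i) (a i) = 1
  refl : ∀ i j, t i (a j) = a (2 * i - j)

variable {mul : V →ₗ[ℝ] V →ₗ[ℝ] V} {B : LinearMap.BilinForm ℝ V}
variable {a : ℤ → V} {t : ℤ → (V ≃ₗ[ℝ] V)}

namespace AxisSeq

theorem idem (h : AxisSeq mul B a t) (i : ℤ) : mul (a i) (a i) = a i := (h.pair i).2.2.1.1.2.1

theorem shift (h : AxisSeq mul B a t) (k : ℤ) :
    AxisSeq mul B (fun i => a (k + i)) (fun i => t (k + i)) where
  pair i := h.pair _
  norm i := h.norm _
  refl i j := by rw [h.refl]; congr 1; ring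

theorem reverse (h : AxisSeq mul B a t) (k : ℤ) :
    AxisSeq mul B (fun i => a (k - i)) (fun i => t (k - i)) where
  pair i := h.pair _
  norm i := h.norm _
  refl i j := by rw [h.refl]; congr 1; ring

theorem double (h : AxisSeq mul B a t) :
    AxisSeq mul B (fun i => a (2 * i)) (fun i => t (2 * i)) where
  pair i := h.pair _
  norm i := h.norm _
  refl i j := by rw [h.refl]; congr 1; ring

theorem form_eq (h : AxisSeq mul B a t) (k i : ℤ) :
    B (a k) (a (2 * k - i)) = B (a k) (a i) := by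
  conv_lhs => arg 1; rw [show a k = t k (a k) by rw [h.refl]; congr 1; ring]
  rw [← h.refl, (h.pair k).2.1]

end AxisSeq

theorem periodic_two {α : Type*} (f : ℤ → α) (h : ∀ i, f (i + 2) = f i) (k i : ℤ) :
    f (2 * k + i) = f i := by
  induction k using Int.induction_on with
  | zero => simp
  | succ n ih => rw [← ih, ← h (2 * (n : ℤ) + i)]; congr 1; ring
  | pred n ih => rw [← ih, ← h (2 * (-(n : ℤ) - 1) + i)]; congr 1; ring

theorem periodic_one {α : Type*} (f : ℤ → α) (h : ∀ i, f (i + 1) = f i) (i : ℤ) : f i = f 0 := by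
  induction i using Int.induction_on with
  | zero => rfl
  | succ n ih => rw [h, ih]
  | pred n ih => rw [← ih, ← h (-(n : ℤ) - 1)]; congr 1; ring

/-- `σ(x, y) = x ∘ y - (x + y) / 32`. -/
noncomputable def sigmaVec (mul : V →ₗ[ℝ] V →ₗ[ℝ] V) (x y : V) : V := mul x y - (1 / 32 : ℝ) • (x + y)

theorem sigmaVec_comm (hV : IsMajoranaAmbient mul B) (x y : V) :
    sigmaVec mul x y = sigmaVec mul y x := by
  rw [sigmaVec, sigmaVec, hV.1 x y, add_comm x y]

theorem mul_eq_sigmaVec (x y : V) : mul x y = sigmaVec mul x y + (1 / 32 : ℝ) • (x + y) := by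
  rw [sigmaVec, sub_add_cancel]

/-- `σ` of two neighbouring axes. -/
noncomputable def adjSigma (mul : V →ₗ[ℝ] V →ₗ[ℝ] V) (a : ℤ → V) : V := sigmaVec mul (a 0) (a 1)

/-- `σ` of the two axes next to position `i`. -/
noncomputable def gapSigma (mul : V →ₗ[ℝ] V →ₗ[ℝ] V) (a : ℤ → V) (i : ℤ) : V :=
  sigmaVec mul (a (i - 1)) (a (i + 1))

namespace AxisSeq

theorem facts (hV : IsMajoranaAmbient mul B) (h : AxisSeq mul B a t) (i j : ℤ) :
    sigmaVec mul (a i) (a (2 * i - j)) = sigmaVec mul (a i) (a j) := by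
  have := (axis_facts hV (h.pair i) (h.norm i) (h.idem j) (h.norm j) rfl rfl rfl).1
  rw [h.refl] at this
  exact this

theorem adj_sigma (hV : IsMajoranaAmbient mul B) (h : AxisSeq mul B a t) (i : ℤ) :
    sigmaVec mul (a i) (a (i + 1)) = adjSigma mul a := by
  rw [periodic_one (fun i => sigmaVec mul (a i) (a (i + 1))) (fun i => ?_) i]
  · rfl
  · show sigmaVec mul (a (i + 1)) (a (i + 1 + 1)) = sigmaVec mul (a i) (a (i + 1))
    rw [show i + 1 + 1 = 2 * (i + 1) - i by ring, h.facts hV, sigmaVec_comm hV]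

theorem gap_sigma_two (hV : IsMajoranaAmbient mul B) (h : AxisSeq mul B a t) (k i : ℤ) :
    gapSigma mul a (2 * k + i) = gapSigma mul a i := by
  apply periodic_two
  intro i
  show sigmaVec mul (a (i + 2 - 1)) (a (i + 2 + 1)) = sigmaVec mul (a (i - 1)) (a (i + 1))
  rw [show i + 2 - 1 = i + 1 by ring, show i + 2 + 1 = 2 * (i + 1) - (i - 1) by ring, h.facts hV,
    sigmaVec_comm hV]

theorem lam_const (hV : IsMajoranaAmbient mul B) (h : AxisSeq mul B a t) (i : ℤ) :
    B (a i) (a (i + 1)) = B (a 0) (a 1) := by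
  rw [periodic_one (fun i => B (a i) (a (i + 1))) (fun i => ?_) i]
  · rfl
  · show B (a (i + 1)) (a (i + 1 + 1)) = B (a i) (a (i + 1))
    rw [show i + 1 + 1 = 2 * (i + 1) - i by ring, h.form_eq, hV.2.1]

theorem gap_form_two (hV : IsMajoranaAmbient mul B) (h : AxisSeq mul B a t) (k i : ℤ) :
    B (a (2 * k + i - 1)) (a (2 * k + i + 1)) = B (a (i - 1)) (a (i + 1)) := by
  apply periodic_two (fun i => B (a (i - 1)) (a (i + 1)))
  intro i
  show B (a (i + 2 - 1)) (a (i + 2 + 1)) = B (a (i - 1)) (a (i + 1))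
  rw [show i + 2 - 1 = i + 1 by ring, show i + 2 + 1 = 2 * (i + 1) - (i - 1) by ring, h.form_eq,
    hV.2.1]

/-- `(a_i, σ)` for the neighbour sigma. -/
theorem form_adj (hV : IsMajoranaAmbient mul B) (h : AxisSeq mul B a t) (i : ℤ) :
    B (a i) (adjSigma mul a) = B (a 0) (a 1) - (1 + B (a 0) (a 1)) / 32 := by
  rw [← h.adj_sigma hV i, sigmaVec, map_sub, map_smul, map_add, h.norm, hV.2.2.2.1, h.idem,
    h.lam_const hV, smul_eq_mul]
  ring

/-- `(a_i, σ(a_i, a_{i+2}))`. -/
theorem form_gap_same (hV : IsMajoranaAmbient mul B) (h : AxisSeq mul B a t) (i : ℤ) :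
    B (a i) (gapSigma mul a (i + 1)) = B (a i) (a (i + 2)) - (1 + B (a i) (a (i + 2))) / 32 := by
  rw [gapSigma, show i + 1 - 1 = i by ring, show i + 1 + 1 = i + 2 by ring, sigmaVec, map_sub,
    map_smul, map_add, h.norm, hV.2.2.2.1, h.idem, smul_eq_mul]
  ring

/-- `(a_i, σ(a_{i-1}, a_{i+1}))`. -/
theorem form_gap_other (hV : IsMajoranaAmbient mul B) (h : AxisSeq mul B a t) (i : ℤ) :
    B (a i) (gapSigma mul a i) =
      (B (a 0) (a 1) - (1 + B (a 0) (a 1)) / 32)
        + (B (a 0) (a 1) + B (a (i - 1)) (a (i + 1))) / 32 - B (a 0) (a 1) / 16 := by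
  have e1 : B (a i) (a (i + 1)) = B (a 0) (a 1) := h.lam_const hV i
  have e2 : B (a i) (a (i - 1)) = B (a 0) (a 1) := by
    rw [hV.2.1]
    have := h.lam_const hV (i - 1)
    rwa [show i - 1 + 1 = i by ring] at this
  have e3 : mul (a i) (a (i - 1)) = adjSigma mul a + (1 / 32 : ℝ) • (a (i - 1) + a i) := by
    rw [hV.1, mul_eq_sigmaVec]
    have := h.adj_sigma hV (i - 1)
    rw [show i - 1 + 1 = i by ring] at this
    rw [this]
  rw [gapSigma, sigmaVec, map_sub, map_smul, map_add, e1, e2, hV.2.2.2.1, e3]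
  simp only [map_add, map_smul, LinearMap.add_apply, LinearMap.smul_apply, smul_eq_mul]
  rw [hV.2.1 (adjSigma mul a) (a (i + 1)), h.form_adj hV, e1]
  ring

end AxisSeq

end CfsgLib.Majorana
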